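import Cfsg.Agent.Lib.Helper21.Asch.TensLib

set_option autoImplicit false

/-! # Commuting copies of `M_m(F)` generating `M_ι(F)` are simultaneously standard -/

namespace Cfsg.Agent.Lib.Helper21.Asch

open Cfsg Cfsg.Geo Matrix Cfsg.Agent.Lib.Helper13.Asch
open scoped Kronecker MatrixGroups

variable {ι : Type} [Fintype ι] [DecidableEq ι] {F : Type*} [Field F]

section build

variable {m t : ℕ} (φ : Fin t → (Matrix (Fin m) (Fin m) F →ₐ[F] Matrix ι ι F))
    (hcomm : ∀ i j, i ≠ j → ∀ X Y, φ i X * φ j Y = φ j Y * φ i X)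

/-- the product map -/
noncomputable def Psi : (Fin t → Matrix (Fin m) (Fin m) F) →* Matrix ι ι F :=
  MonoidHom.noncommPiCoprod (fun i => ((φ i : Matrix (Fin m) (Fin m) F →ₐ[F] Matrix ι ι F) :
    Matrix (Fin m) (Fin m) F →* Matrix ι ι F)) (fun i j hij X Y => hcomm i j hij X Y)

theorem Psi_mulSingle (i : Fin t) (X : Matrix (Fin m) (Fin m) F) :
    Psi φ hcomm (Pi.mulSingle i X) = φ i X := by
  exact MonoidHom.noncommPiCoprod_mulSingle (N := fun _ : Fin t => Matrix (Fin m) (Fin m) F)
    (fun i => ((φ i : Matrix (Fin m) (Fin m) F →ₐ[F] Matrix ι ι F) :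
    Matrix (Fin m) (Fin m) F →* Matrix ι ι F)) i X

theorem Psi_update (f : Fin t → Matrix (Fin m) (Fin m) F) (i : Fin t)
    (X : Matrix (Fin m) (Fin m) F) :
    Psi φ hcomm (Function.update f i X) = Psi φ hcomm (Function.update f i 1) * φ i X := by
  rw [← Psi_mulSingle φ hcomm, ← map_mul]
  congr 1
  ext1 j
  by_cases hj : j = i
  · subst hj; simp
  · simp [Function.update_of_ne hj, Pi.mulSingle_eq_of_ne hj]

/-- the product map is multilinear -/
noncomputable def PsiM : MultilinearMap F (fun _ : Fin t => Matrix (Fin m) (Fin m) F) (Matrix ι ι F) where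
  toFun := Psi φ hcomm
  map_update_add' := by
    intro _ f i X Y
    have e : ‹DecidableEq (Fin t)› = instDecidableEqFin t := Subsingleton.elim _ _
    subst e
    rw [Psi_update, Psi_update φ hcomm f i X, Psi_update φ hcomm f i Y, map_add, mul_add]
  map_update_smul' := by
    intro _ f i c X
    have e : ‹DecidableEq (Fin t)› = instDecidableEqFin t := Subsingleton.elim _ _
    subst e
    rw [Psi_update, Psi_update φ hcomm f i X, map_smul, mul_smul_comm]

theorem Psi_zero (f : Fin t → Matrix (Fin m) (Fin m) F) (i : Fin t) (h : f i = 0) :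
    Psi φ hcomm f = 0 := by
  have : f = Function.update f i 0 := by rw [← h]; simp
  rw [this, Psi_update, map_zero, mul_zero]

/-- the matrix units -/
noncomputable def EE (x y : Fin t → Fin m) : Matrix ι ι F :=
  Psi φ hcomm (fun i => Matrix.single (x i) (y i) 1)

theorem EE_mul (x y z w : Fin t → Fin m) :
    EE φ hcomm x y * EE φ hcomm z w = if y = z then EE φ hcomm x w else 0 := by
  unfold EE
  rw [← map_mul]
  split_ifs with h
  · subst h
    congr 1
    ext1 i
    simp
  · obtain ⟨i, hi⟩ := Function.ne_iff.mp h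
    apply Psi_zero φ hcomm _ i
    simp [Matrix.single_mul_single_of_ne _ _ _ _ hi]

theorem Psi_expand (f : Fin t → Matrix (Fin m) (Fin m) F) :
    Psi φ hcomm f = ∑ x, ∑ y, pureT f x y • EE φ hcomm x y := by
  have h1 : f = fun i => ∑ p : Fin m × Fin m, f i p.1 p.2 • Matrix.single p.1 p.2 (1 : F) := by
    ext1 i
    conv_lhs => rw [Matrix.matrix_eq_sum_single (f i)]
    rw [Fintype.sum_prod_type]
    simp [Matrix.smul_single]
  have h2 : Psi φ hcomm f = PsiM φ hcomm f := rfl
  rw [h2]
  conv_lhs => rw [h1]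
  rw [MultilinearMap.map_sum]
  simp only [MultilinearMap.map_smul_univ]
  rw [← Fintype.sum_prod_type']
  refine Fintype.sum_equiv (Equiv.arrowProdEquivProdArrow _ _ _) _ _ ?_
  intro r
  rfl

/-- the algebra homomorphism extending all the `φ i` -/
noncomputable def Phi : Matrix (Fin t → Fin m) (Fin t → Fin m) F →ₐ[F] Matrix ι ι F :=
  AlgHom.ofLinearMap
    { toFun := fun M => ∑ x, ∑ y, M x y • EE φ hcomm x y
      map_add' := by
        intro M N
        simp [add_smul, Finset.sum_add_distrib]
      map_smul' := by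
        intro c M
        simp [mul_smul, Finset.smul_sum] }
    (by
      show ∑ x, ∑ y, (1 : Matrix (Fin t → Fin m) (Fin t → Fin m) F) x y • EE φ hcomm x y = 1
      rw [← pureT_one, ← Psi_expand, map_one])
    (by
      intro M N
      show ∑ x, ∑ y, (M * N) x y • EE φ hcomm x y =
        (∑ x, ∑ y, M x y • EE φ hcomm x y) * (∑ x, ∑ y, N x y • EE φ hcomm x y)
      have key : ∀ x y, (M x y • EE φ hcomm x y) * (∑ z, ∑ w, N z w • EE φ hcomm z w) =
          ∑ w, (M x y * N y w) • EE φ hcomm x w := by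
        intro x y
        rw [Finset.mul_sum, Finset.sum_eq_single y]
        · rw [Finset.mul_sum]
          refine Finset.sum_congr rfl fun w _ => ?_
          rw [smul_mul_smul_comm, EE_mul, if_pos rfl]
        · intro z _ hz
          rw [Finset.mul_sum]
          apply Finset.sum_eq_zero
          intro w _
          rw [smul_mul_smul_comm, EE_mul, if_neg (Ne.symm hz), smul_zero]
        · simp
      rw [Finset.sum_mul]
      refine Finset.sum_congr rfl fun x _ => ?_
      rw [Finset.sum_mul]
      simp only [key, Matrix.mul_apply, Finset.sum_smul]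
      rw [Finset.sum_comm])

theorem Phi_pureT (f : Fin t → Matrix (Fin m) (Fin m) F) :
    Phi φ hcomm (pureT f) = Psi φ hcomm f := (Psi_expand φ hcomm f).symm

theorem Phi_stdT (i : Fin t) (X : Matrix (Fin m) (Fin m) F) :
    Phi φ hcomm (stdT i X) = φ i X := by
  rw [stdT_eq_pureT, Phi_pureT, Psi_mulSingle]

end build

/-- L13 -/
theorem tensor_std [Nonempty ι] {m t : ℕ} (φ : Fin t → (Matrix (Fin m) (Fin m) F →ₐ[F] Matrix ι ι F))
    (hcomm : ∀ i j, i ≠ j → ∀ X Y, φ i X * φ j Y = φ j Y * φ i X)
    (hgen : (⨆ i, (φ i).range) = ⊤) :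
    ∃ (e : ι ≃ (Fin t → Fin m)) (P : GL ι F), ∀ i X, φ i X = embT e P i X := by
  have hT : Nonempty (Fin t → Fin m) := by
    by_contra hne
    rw [not_nonempty_iff] at hne
    have : (1 : Matrix ι ι F) = 0 := by
      rw [← map_one (Phi φ hcomm), ← map_zero (Phi φ hcomm)]
      congr 1
      exact Subsingleton.elim _ _
    exact one_ne_zero this
  have hinj : Function.Injective (Phi φ hcomm) := (Phi φ hcomm).toRingHom.injective
  have hsurj : Function.Surjective (Phi φ hcomm) := by
    rw [← AlgHom.range_eq_top, eq_top_iff, ← hgen]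
    refine iSup_le fun i => ?_
    rintro _ ⟨X, rfl⟩
    exact ⟨stdT i X, Phi_stdT φ hcomm i X⟩
  obtain ⟨hcard, A, B, hAB, hBA, hf⟩ :=
    matrix_algEquiv_inner (AlgEquiv.ofBijective (Phi φ hcomm) ⟨hinj, hsurj⟩)
  let e : ι ≃ (Fin t → Fin m) := Fintype.equivOfCardEq hcard.symm
  let P : GL ι F := ⟨A.submatrix id e, B.submatrix e id,
    by rw [Matrix.submatrix_mul_equiv, hAB]; simp,
    by
      have := Matrix.submatrix_mul_equiv B A e (Equiv.refl ι) e
      simp only [Equiv.coe_refl] at this
      rw [this, hBA]; simp⟩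
  refine ⟨e, P, fun i X => ?_⟩
  have h1 : φ i X = A * stdT i X * B := by
    rw [← hf, ← Phi_stdT φ hcomm i X]
    rfl
  rw [h1]
  unfold embT
  show _ = A.submatrix id e * Matrix.reindex e.symm e.symm (stdT i X) * B.submatrix e id
  rw [Matrix.reindex_apply, Equiv.symm_symm, Matrix.submatrix_mul_equiv, Matrix.submatrix_mul_equiv]
  simp

end Cfsg.Agent.Lib.Helper21.Asch
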