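import Cfsg.Agent.Lib.Helper21.Asch.TensLib

set_option autoImplicit false

/-! # The normaliser of the tensor frame is the tensor wreath group -/

namespace Cfsg.Agent.Lib.Helper21.Asch

open Cfsg Cfsg.Geo Matrix Cfsg.Agent.Lib.Helper13.Asch
open scoped Kronecker MatrixGroups

variable {ι : Type} [Fintype ι] [DecidableEq ι] {F : Type*} [Field F]

variable {m t : ℕ}

theorem stdT_mul (i : Fin t) (X Y : Matrix (Fin m) (Fin m) F) :
    stdT i (X * Y) = stdT i X * stdT i Y := by
  rw [stdT_eq_pureT, stdT_eq_pureT, stdT_eq_pureT, ← pureT_mul, Pi.mulSingle_mul]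

theorem stdT_one (i : Fin t) : stdT i (1 : Matrix (Fin m) (Fin m) F) = 1 := by
  rw [stdT_eq_pureT, Pi.mulSingle_one, pureT_one]

theorem stdT_add (i : Fin t) (X Y : Matrix (Fin m) (Fin m) F) :
    stdT i (X + Y) = stdT i X + stdT i Y := by
  ext x y
  simp only [stdT, Matrix.add_apply]
  split_ifs <;> simp

theorem stdT_smul (i : Fin t) (c : F) (X : Matrix (Fin m) (Fin m) F) :
    stdT i (c • X) = c • stdT i X := by
  ext x y
  simp only [stdT, Matrix.smul_apply]
  split_ifs <;> simp

theorem stdT_injective [Nonempty (Fin t → Fin m)] (i : Fin t) :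
    Function.Injective (stdT (F := F) (m := m) i) := by
  intro X Y h
  obtain ⟨x0⟩ := ‹Nonempty (Fin t → Fin m)›
  ext a b
  have := congrFun (congrFun h (Function.update x0 i a)) (Function.update x0 i b)
  simp only [stdT, Function.update_self] at this
  rw [if_pos, if_pos] at this
  · exact this
  · intro j hj; simp [Function.update_of_ne hj]
  · intro j hj; simp [Function.update_of_ne hj]

theorem pureT_single (x y : Fin t → Fin m) :
    pureT (fun i => Matrix.single (x i) (y i) (1 : F)) = Matrix.single x y 1 := by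
  ext a b
  simp only [pureT_apply, Matrix.single_apply]
  by_cases h : x = a ∧ y = b
  · obtain ⟨rfl, rfl⟩ := h
    simp
  · rw [if_neg h]
    have : ∃ i, ¬ (x i = a i ∧ y i = b i) := by
      by_contra hc
      push Not at hc
      exact h ⟨funext fun i => (hc i).1, funext fun i => (hc i).2⟩
    obtain ⟨i, hi⟩ := this
    exact Finset.prod_eq_zero (Finset.mem_univ i) (if_neg hi)

/-- `pureT` as a monoid homomorphism -/
def pureTHom : (Fin t → Matrix (Fin m) (Fin m) F) →* Matrix (Fin t → Fin m) (Fin t → Fin m) F where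
  toFun := pureT
  map_one' := pureT_one
  map_mul' := pureT_mul

theorem commute_pureT (z : Matrix (Fin t → Fin m) (Fin t → Fin m) F)
    (hz : ∀ i (X : Matrix (Fin m) (Fin m) F), Commute z (stdT i X))
    (f : Fin t → Matrix (Fin m) (Fin m) F) : Commute z (pureT f) := by
  have h1 := MonoidHom.noncommPiCoprodEquiv.apply_symm_apply (pureTHom (F := F) (m := m) (t := t))
  have h2 : pureT f = pureTHom f := rfl
  rw [h2, ← h1]
  refine MonoidHom.commute_noncommPiCoprod
    (ϕ := (MonoidHom.noncommPiCoprodEquiv.symm (pureTHom (F := F) (m := m) (t := t))).1)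
    (hcomm := (MonoidHom.noncommPiCoprodEquiv.symm (pureTHom (F := F) (m := m) (t := t))).2)
    (fun i X => ?_) f
  have h3 : (MonoidHom.noncommPiCoprodEquiv.symm (pureTHom (F := F) (m := m) (t := t))).1 i X
      = stdT i X := by
    rw [stdT_eq_pureT]; rfl
  rw [h3]
  exact hz i X

theorem scalar_of_commute_stdT (z : Matrix (Fin t → Fin m) (Fin t → Fin m) F)
    (hz : ∀ i (X : Matrix (Fin m) (Fin m) F), Commute z (stdT i X)) :
    ∃ c : F, z = c • 1 := by
  have : z ∈ Set.range (Matrix.scalar (Fin t → Fin m)) := by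
    apply Matrix.mem_range_scalar_of_commute_single
    intro x y _
    rw [← pureT_single]
    exact (commute_pureT z hz _).symm
  obtain ⟨c, rfl⟩ := this
  exact ⟨c, by simp [Matrix.smul_one_eq_diagonal]⟩

/-- the factor permutation matrix -/
def permT (σ : Equiv.Perm (Fin t)) : Matrix (Fin t → Fin m) (Fin t → Fin m) F :=
  fun x y => if y = x ∘ σ then 1 else 0

theorem permT_mul (σ : Equiv.Perm (Fin t)) (M : Matrix (Fin t → Fin m) (Fin t → Fin m) F)
    (x y : Fin t → Fin m) :
    ((permT σ : Matrix (Fin t → Fin m) (Fin t → Fin m) F) * M) x y = M (x ∘ σ) y := by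
  simp [Matrix.mul_apply, permT]

theorem mul_permT (σ : Equiv.Perm (Fin t)) (M : Matrix (Fin t → Fin m) (Fin t → Fin m) F)
    (x y : Fin t → Fin m) :
    (M * (permT σ : Matrix (Fin t → Fin m) (Fin t → Fin m) F)) x y = M x (y ∘ σ.symm) := by
  simp only [Matrix.mul_apply, permT]
  rw [Finset.sum_eq_single (y ∘ σ.symm)]
  · rw [if_pos, mul_one]
    ext j; simp
  · intro w _ hw
    rw [if_neg, mul_zero]
    rintro rfl
    apply hw
    ext j; simp
  · simp

theorem permT_mul_permT_symm (σ : Equiv.Perm (Fin t)) :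
    permT σ * permT σ.symm = (1 : Matrix (Fin t → Fin m) (Fin t → Fin m) F) := by
  ext x y
  rw [permT_mul]
  simp only [permT, Matrix.one_apply]
  have : (x ∘ σ) ∘ σ.symm = x := by ext j; simp
  rw [this]
  simp [eq_comm]

/-- the factor permutation as an invertible matrix -/
def permG (σ : Equiv.Perm (Fin t)) : GL (Fin t → Fin m) F :=
  ⟨permT σ, permT σ.symm, permT_mul_permT_symm σ, by
    have := permT_mul_permT_symm (F := F) (m := m) σ.symm
    rwa [Equiv.symm_symm] at this⟩

theorem permT_conj (σ : Equiv.Perm (Fin t)) (i : Fin t) (X : Matrix (Fin m) (Fin m) F) :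
    permT σ * stdT i X * permT σ.symm = stdT (σ i) X := by
  ext x y
  rw [mul_permT, permT_mul, Equiv.symm_symm]
  simp only [stdT, Function.comp_apply]
  congr 1
  apply propext
  constructor
  · intro h j hj
    have := h (σ.symm j) (by rintro rfl; simp at hj)
    simpa using this
  · intro h j hj
    exact h (σ j) (by simpa using hj)

theorem pureT_conj (A B : Fin t → Matrix (Fin m) (Fin m) F) (hAB : ∀ j, A j * B j = 1)
    (j : Fin t) (X : Matrix (Fin m) (Fin m) F) :
    pureT A * stdT j X * pureT B = stdT j (A j * X * B j) := by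
  rw [stdT_eq_pureT, stdT_eq_pureT, ← pureT_mul, ← pureT_mul]
  congr 1
  ext1 k
  by_cases hk : k = j
  · subst hk; simp
  · simp [Pi.mulSingle_eq_of_ne hk, hAB]

theorem mem_std (ht : 0 < t) (h : GL (Fin t → Fin m) F) (σ : Equiv.Perm (Fin t))
    (hh : ∀ i, ∀ X : Matrix (Fin m) (Fin m) F, ∃ Y : Matrix (Fin m) (Fin m) F,
      (h : Matrix (Fin t → Fin m) (Fin t → Fin m) F) * stdT i X *
        ((h⁻¹ : GL (Fin t → Fin m) F) : Matrix (Fin t → Fin m) (Fin t → Fin m) F) = stdT (σ i) Y) :
    h ∈ tensorWreathStandard m t F := by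
  by_cases hT : Nonempty (Fin t → Fin m)
  swap
  · rw [not_nonempty_iff] at hT
    have : h = 1 := Units.ext (Subsingleton.elim _ _)
    rw [this]; exact one_mem _
  have hm : Nonempty (Fin m) := ⟨hT.some ⟨0, ht⟩⟩
  choose Y hY using hh
  let α : ∀ i, Matrix (Fin m) (Fin m) F →ₐ[F] Matrix (Fin m) (Fin m) F := fun i =>
    AlgHom.ofLinearMap
      { toFun := Y i
        map_add' := fun X X' => stdT_injective (σ i) (by
          rw [← hY, stdT_add, stdT_add, mul_add, add_mul, hY, hY])
        map_smul' := fun c X => stdT_injective (σ i) (by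
          simp only [RingHom.id_apply]
          rw [← hY, stdT_smul, stdT_smul, mul_smul_comm, smul_mul_assoc, hY]) }
      (stdT_injective (σ i) (by
        show stdT (σ i) (Y i 1) = _
        rw [← hY, stdT_one, stdT_one, mul_one, ← Units.val_mul, mul_inv_cancel]; rfl))
      (fun X X' => stdT_injective (σ i) (by
        show stdT (σ i) (Y i (X * X')) = stdT (σ i) (Y i X * Y i X')
        rw [stdT_mul, ← hY, ← hY, ← hY, stdT_mul]
        simp [mul_assoc]))
  have hαinj : ∀ i, Function.Injective (α i) := fun i => (α i).toRingHom.injective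
  have hαsurj : ∀ i, Function.Surjective (α i) := fun i =>
    (LinearMap.injective_iff_surjective (f := (α i).toLinearMap)).mp (hαinj i)
  have hin := fun i => (matrix_algEquiv_inner (AlgEquiv.ofBijective (α i) ⟨hαinj i, hαsurj i⟩)).2
  choose A B hAB hBA hf using hin
  have hf' : ∀ i X, Y i X = A i * X * B i := fun i X => hf i X
  let gs : Fin t → GL (Fin m) F := fun j => ⟨A (σ.symm j), B (σ.symm j), hAB _, hBA _⟩
  let G : GL (Fin t → Fin m) F :=
    ⟨pureT (fun j => A (σ.symm j)), pureT (fun j => B (σ.symm j)),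
      by
        rw [← pureT_mul, ← pureT_one]; congr 1; ext1 j; exact hAB _,
      by
        rw [← pureT_mul, ← pureT_one]; congr 1; ext1 j; exact hBA _⟩
  have hG : G ∈ tensorWreathStandard m t F :=
    Subgroup.subset_closure (Or.inl ⟨gs, fun x y => rfl⟩)
  have hπ : (permG σ : GL (Fin t → Fin m) F) ∈ tensorWreathStandard m t F :=
    Subgroup.subset_closure (Or.inr ⟨σ, fun x y => rfl⟩)
  set w : GL (Fin t → Fin m) F := G * permG σ with hw
  have key : ∀ i X, (h : Matrix (Fin t → Fin m) (Fin t → Fin m) F) * stdT i X *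
      ((h⁻¹ : GL (Fin t → Fin m) F) : Matrix (Fin t → Fin m) (Fin t → Fin m) F) =
      (w : Matrix (Fin t → Fin m) (Fin t → Fin m) F) * stdT i X *
      ((w⁻¹ : GL (Fin t → Fin m) F) : Matrix (Fin t → Fin m) (Fin t → Fin m) F) := by
    intro i X
    rw [hY, hf']
    have h1 : (w : Matrix (Fin t → Fin m) (Fin t → Fin m) F) =
        pureT (fun j => A (σ.symm j)) * permT σ := rfl
    have h2 : ((w⁻¹ : GL (Fin t → Fin m) F) : Matrix (Fin t → Fin m) (Fin t → Fin m) F) =
        permT σ.symm * pureT (fun j => B (σ.symm j)) := by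
      rw [hw, _root_.mul_inv_rev]; rfl
    rw [h1, h2]
    have h3 := pureT_conj (fun j => A (σ.symm j)) (fun j => B (σ.symm j)) (fun j => hAB _) (σ i) X
    simp only [Equiv.symm_apply_apply] at h3
    rw [← h3, ← permT_conj]
    simp only [mul_assoc]
  set z : GL (Fin t → Fin m) F := w⁻¹ * h with hz
  have hzc : ∀ i (X : Matrix (Fin m) (Fin m) F),
      Commute (z : Matrix (Fin t → Fin m) (Fin t → Fin m) F) (stdT i X) := by
    intro i X
    show (z : Matrix (Fin t → Fin m) (Fin t → Fin m) F) * stdT i X = stdT i X * z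
    calc (z : Matrix (Fin t → Fin m) (Fin t → Fin m) F) * stdT i X
        = ((w⁻¹ : GL (Fin t → Fin m) F) : Matrix (Fin t → Fin m) (Fin t → Fin m) F) *
          ((h : Matrix (Fin t → Fin m) (Fin t → Fin m) F) * stdT i X *
          ((h⁻¹ : GL (Fin t → Fin m) F) : Matrix (Fin t → Fin m) (Fin t → Fin m) F)) * h := by
          rw [hz]; simp [mul_assoc]
      _ = stdT i X * z := by
          rw [key, hz]; simp [mul_assoc]
  obtain ⟨c, hc⟩ := scalar_of_commute_stdT _ hzc
  have hc0 : c ≠ 0 := by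
    rintro rfl
    have h1 : (z : Matrix (Fin t → Fin m) (Fin t → Fin m) F) *
      ((z⁻¹ : GL (Fin t → Fin m) F) : Matrix (Fin t → Fin m) (Fin t → Fin m) F) = 1 := by
      rw [← Units.val_mul, mul_inv_cancel]; rfl
    rw [hc, zero_smul, zero_mul] at h1
    exact zero_ne_one h1
  let u : GL (Fin m) F := ⟨c • 1, c⁻¹ • 1, by simp [hc0], by simp [hc0]⟩
  have hzm : z ∈ tensorWreathStandard m t F := by
    refine Subgroup.subset_closure (Or.inl ⟨Pi.mulSingle ⟨0, ht⟩ u, fun x y => ?_⟩)
    have h1 : (z : Matrix (Fin t → Fin m) (Fin t → Fin m) F) =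
        pureT (Pi.mulSingle ⟨0, ht⟩ (c • 1)) := by
      rw [← stdT_eq_pureT, stdT_smul, stdT_one, hc]
    rw [h1, pureT_apply]
    refine Finset.prod_congr rfl fun i _ => ?_
    by_cases hi : i = ⟨0, ht⟩
    · subst hi; simp [u]
    · simp [Pi.mulSingle_eq_of_ne hi]
  have : h = G * permG σ * z := by rw [hz, ← hw]; group
  rw [this]
  exact mul_mem (mul_mem hG hπ) hzm

/-- L14 -/
theorem mem_tensorWreath {m t : ℕ} (ht : 0 < t) (e : ι ≃ (Fin t → Fin m)) (P h : GL ι F)
    (σ : Equiv.Perm (Fin t))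
    (hh : ∀ i, ∀ X : Matrix (Fin m) (Fin m) F, ∃ Y : Matrix (Fin m) (Fin m) F,
      (h : Matrix ι ι F) * embT e P i X * ((h⁻¹ : GL ι F) : Matrix ι ι F) = embT e P (σ i) Y) :
    h ∈ tensorWreathSubgroup m t e P := by
  unfold tensorWreathSubgroup
  set k : GL ι F := P⁻¹ * h * P with hk
  set h' : GL (Fin t → Fin m) F := glReindex e k with hh'
  set ρ := Matrix.reindexAlgEquiv F F e with hρ
  have e1 : (h' : Matrix (Fin t → Fin m) (Fin t → Fin m) F) = ρ (k : Matrix ι ι F) := rfl
  have e2 : ((h'⁻¹ : GL (Fin t → Fin m) F) : Matrix (Fin t → Fin m) (Fin t → Fin m) F) =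
      ρ ((k⁻¹ : GL ι F) : Matrix ι ι F) := by
    rw [hh', ← map_inv]; rfl
  have e3 : ∀ S : Matrix (Fin t → Fin m) (Fin t → Fin m) F,
      Matrix.reindex e.symm e.symm S = ρ.symm S := fun S => rfl
  have hmem : h' ∈ tensorWreathStandard m t F := by
    refine mem_std ht h' σ (fun i X => ?_)
    obtain ⟨Y, hY⟩ := hh i X
    refine ⟨Y, ?_⟩
    unfold embT at hY
    rw [e3, e3] at hY
    have h1 : (k : Matrix ι ι F) * ρ.symm (stdT i X) * ((k⁻¹ : GL ι F) : Matrix ι ι F) =
        ρ.symm (stdT (σ i) Y) := by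
      have h2 : ρ.symm (stdT (σ i) Y) = ((P⁻¹ : GL ι F) : Matrix ι ι F) *
          ((P : Matrix ι ι F) * ρ.symm (stdT (σ i) Y) * ((P⁻¹ : GL ι F) : Matrix ι ι F)) * P := by
        simp [mul_assoc]
      rw [h2, ← hY, hk]
      simp [mul_assoc]
    rw [e1, e2]
    have h3 : stdT i X = ρ (ρ.symm (stdT i X)) := (ρ.apply_symm_apply _).symm
    rw [h3, ← map_mul, ← map_mul, h1, ρ.apply_symm_apply]
  refine ⟨glReindex e.symm h', ⟨h', hmem, rfl⟩, ?_⟩
  have h4 : glReindex e.symm h' = k := by
    apply Units.ext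
    show ρ.symm (ρ (k : Matrix ι ι F)) = k
    exact ρ.symm_apply_apply _
  show MulAut.conj P (glReindex e.symm h') = h
  rw [h4, hk, MulAut.conj_apply]
  group

end Cfsg.Agent.Lib.Helper21.Asch
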