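import Cfsg.Agent.Lib.Helper13.Asch.Defs

set_option autoImplicit false

/-! # Pure tensors of matrices indexed by functions, and inner automorphisms -/

namespace Cfsg.Agent.Lib.Helper21.Asch

open Cfsg Cfsg.Geo Matrix Cfsg.Agent.Lib.Helper13.Asch
open scoped Kronecker MatrixGroups

variable {F : Type*} [Field F]

/-- every algebra isomorphism between full matrix algebras is a conjugation -/
theorem matrix_algEquiv_inner {κ ι : Type*} [Fintype κ] [DecidableEq κ] [Fintype ι] [DecidableEq ι]
    (f : Matrix κ κ F ≃ₐ[F] Matrix ι ι F) :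
    Fintype.card κ = Fintype.card ι ∧
    ∃ (A : Matrix ι κ F) (B : Matrix κ ι F), A * B = 1 ∧ B * A = 1 ∧ ∀ X, f X = A * X * B := by
  let g : Module.End F (κ → F) ≃ₐ[F] Module.End F (ι → F) :=
    (Matrix.toLinAlgEquiv'.symm.trans f).trans Matrix.toLinAlgEquiv'
  obtain ⟨T, hT⟩ := g.eq_linearEquivConjAlgEquiv
  refine ⟨?_, LinearMap.toMatrix' T.toLinearMap, LinearMap.toMatrix' T.symm.toLinearMap, ?_, ?_, ?_⟩
  · have := T.finrank_eq
    simpa using this
  · rw [← LinearMap.toMatrix'_comp]; simp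
  · rw [← LinearMap.toMatrix'_comp]; simp
  · intro X
    have h1 := congrArg (fun k => k (Matrix.toLin' X)) hT
    have h2 : g (Matrix.toLin' X) = Matrix.toLin' (f X) := by
      have h3 : LinearMap.toMatrixAlgEquiv' (Matrix.toLin' X) = X := by
        exact LinearMap.toMatrix'_toLin' X
      simp only [g, AlgEquiv.trans_apply, Matrix.toLinAlgEquiv'_symm, h3]
      rfl
    simp only [h2] at h1
    apply Matrix.toLin'.injective
    rw [h1]
    simp [Matrix.toLin'_mul, LinearEquiv.conjAlgEquiv_apply, LinearMap.comp_assoc]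

variable {m t : ℕ}

/-- the pure tensor of a family of matrices -/
def pureT (f : Fin t → Matrix (Fin m) (Fin m) F) : Matrix (Fin t → Fin m) (Fin t → Fin m) F :=
  fun x y => ∏ i, f i (x i) (y i)

theorem pureT_apply (f : Fin t → Matrix (Fin m) (Fin m) F) (x y : Fin t → Fin m) :
    pureT f x y = ∏ i, f i (x i) (y i) := rfl

theorem pureT_mul (f g : Fin t → Matrix (Fin m) (Fin m) F) :
    pureT (f * g) = pureT f * pureT g := by
  ext x z
  simp only [pureT_apply, Matrix.mul_apply, Pi.mul_apply]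
  rw [Finset.prod_univ_sum]
  simp [Finset.prod_mul_distrib]

theorem pureT_one : pureT (1 : Fin t → Matrix (Fin m) (Fin m) F) = 1 := by
  ext x y
  simp only [pureT_apply, Pi.one_apply, Matrix.one_apply]
  by_cases h : x = y
  · subst h; simp
  · rw [if_neg h]
    obtain ⟨i, hi⟩ := Function.ne_iff.mp h
    exact Finset.prod_eq_zero (Finset.mem_univ i) (if_neg hi)

theorem stdT_eq_pureT (i : Fin t) (X : Matrix (Fin m) (Fin m) F) :
    stdT i X = pureT (Pi.mulSingle i X) := by
  ext x y
  simp only [stdT, pureT_apply]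
  rw [← Finset.mul_prod_erase Finset.univ _ (Finset.mem_univ i)]
  simp only [Pi.mulSingle_eq_same]
  split_ifs with h
  · rw [Finset.prod_eq_one, mul_one]
    intro j hj
    have hj' : j ≠ i := (Finset.mem_erase.mp hj).1
    rw [Pi.mulSingle_eq_of_ne hj', h j hj']; simp
  · push Not at h
    obtain ⟨j, hj, hxy⟩ := h
    rw [Finset.prod_eq_zero (i := j) (Finset.mem_erase.mpr ⟨hj, Finset.mem_univ j⟩), mul_zero]
    rw [Pi.mulSingle_eq_of_ne hj]; simp [hxy]

end Cfsg.Agent.Lib.Helper21.Asch
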